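import Mathlib
import Cfsg.Agent.Lib.Helper23.PGroupEA
import Cfsg.Agent.Lib.Helper61.Norm

/-!
Elementary lemmas on the action of a `p`-element on an elementary abelian group of order `p ^ 2`
(used for Bender–Glauberman Theorem 12.7).
-/

set_option autoImplicit false

namespace Cfsg.Agent.Lib.Helper79.BG

variable {G : Type*} [Group G]

/-- The cyclic group generated by an element of `p`-power order is a `p`-group. -/
theorem isPGroup_zpowers {p : ℕ} {t : G} (ht : ∃ k : ℕ, t ^ p ^ k = 1) :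
    IsPGroup p (Subgroup.zpowers t) := by
  obtain ⟨k, hk⟩ := ht
  rintro ⟨g, hg⟩
  obtain ⟨n, rfl⟩ := Subgroup.mem_zpowers_iff.mp hg
  refine ⟨k, Subtype.ext ?_⟩
  show (t ^ n) ^ p ^ k = 1
  rw [← zpow_natCast, ← zpow_mul, mul_comm, zpow_mul, zpow_natCast, hk, one_zpow]

/-- A `p`-group acting by conjugation on a finite subgroup of order divisible by `p` fixes a
non-identity element. -/
theorem exists_fixed_ne_one [Finite G] {Γ : Type*} [Group Γ] {p : ℕ} [hp : Fact p.Prime]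
    (hΓ : IsPGroup p Γ) (f : Γ →* G) (N : Subgroup G) (hN : p ∣ Nat.card N)
    (hinv : ∀ g : Γ, ∀ s ∈ N, f g * s * (f g)⁻¹ ∈ N) :
    ∃ z ∈ N, z ≠ 1 ∧ ∀ g : Γ, f g * z * (f g)⁻¹ = z := by
  have h1 := Cfsg.Agent.Lib.Helper23.card_modEq_card_fixed_conj hΓ f (N : Set G)
    (Set.toFinite _) hinv
  have h2 : p ∣ Nat.card {s : G // s ∈ (N : Set G) ∧ ∀ g : Γ, f g * s * (f g)⁻¹ = s} := by
    have h3 : Nat.card (N : Set G) = Nat.card N := rfl
    rw [h3] at h1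
    exact (Nat.modEq_zero_iff_dvd.mp ((h1.symm.trans (Nat.modEq_zero_iff_dvd.mpr hN))))
  have hfin : Finite {s : G // s ∈ (N : Set G) ∧ ∀ g : Γ, f g * s * (f g)⁻¹ = s} :=
    Subtype.finite
  have hone : (1 : G) ∈ (N : Set G) ∧ ∀ g : Γ, f g * 1 * (f g)⁻¹ = 1 :=
    ⟨N.one_mem, fun g => by simp⟩
  have hpos : 0 < Nat.card {s : G // s ∈ (N : Set G) ∧ ∀ g : Γ, f g * s * (f g)⁻¹ = s} :=
    Nat.card_pos_iff.mpr ⟨⟨⟨1, hone⟩⟩, hfin⟩
  have hlt : 1 < Nat.card {s : G // s ∈ (N : Set G) ∧ ∀ g : Γ, f g * s * (f g)⁻¹ = s} := by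
    have := Nat.le_of_dvd hpos h2
    have := hp.out.one_lt
    omega
  have hnt := Finite.one_lt_card_iff_nontrivial.mp hlt
  obtain ⟨⟨z, hz⟩, hne⟩ := exists_ne (⟨1, hone⟩ :
    {s : G // s ∈ (N : Set G) ∧ ∀ g : Γ, f g * s * (f g)⁻¹ = s})
  refine ⟨z, hz.1, ?_, hz.2⟩
  intro h
  apply hne
  exact Subtype.ext h

/-- A `p`-group normalizing a subgroup of order `p` centralizes it. -/
theorem conj_eq_of_card_prime [Finite G] {Γ : Type*} [Group Γ] {p : ℕ} [hp : Fact p.Prime]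
    (hΓ : IsPGroup p Γ) (f : Γ →* G) (I : Subgroup G) (hI : Nat.card I = p)
    (hinv : ∀ g : Γ, ∀ s ∈ I, f g * s * (f g)⁻¹ ∈ I) :
    ∀ g : Γ, ∀ s ∈ I, f g * s * (f g)⁻¹ = s := by
  obtain ⟨z, hzI, hz1, hz⟩ := exists_fixed_ne_one hΓ f I (by rw [hI]) hinv
  have hIz : I = Subgroup.zpowers z :=
    Cfsg.Agent.Lib.Helper61.eq_zpowers_of_prime_card hp.out I hI hzI hz1
  intro g s hs
  rw [hIz] at hs
  obtain ⟨n, rfl⟩ := Subgroup.mem_zpowers_iff.mp hs
  have h1 : f g * z ^ n * (f g)⁻¹ = (f g * z * (f g)⁻¹) ^ n := by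
    rw [conj_zpow]
  rw [h1, hz g]


/-- If a power `t ^ i` with `0 < i < p` of an element of `p`-power order lies in a subgroup, so
does `t`. -/
theorem mem_of_pow_mem {p : ℕ} [hp : Fact p.Prime] {t : G} (ht : ∃ k : ℕ, t ^ p ^ k = 1)
    (M : Subgroup G) {i : ℕ} (hi0 : 0 < i) (hip : i < p) (h : t ^ i ∈ M) : t ∈ M := by
  obtain ⟨k, hk⟩ := ht
  have hord : orderOf t ∣ p ^ k := orderOf_dvd_of_pow_eq_one hk
  obtain ⟨j, -, hj⟩ := (Nat.dvd_prime_pow hp.out).mp hord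
  have hcop : i.Coprime (orderOf t) := by
    rw [hj]
    apply Nat.Coprime.pow_right
    rw [Nat.coprime_comm]
    exact (Nat.Prime.coprime_iff_not_dvd hp.out).mpr (Nat.not_dvd_of_pos_of_lt hi0 hip)
  obtain ⟨m, hm⟩ := exists_pow_eq_self_of_coprime hcop
  rw [← hm]
  exact M.pow_mem h m

/-- The action of a `p`-element `t` on an elementary abelian group `A` of order `p ^ 2` which it
normalizes but does not centralize: the fixed points form a subgroup `Z₀` of order `p`, and the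
powers `t ^ i`, `0 < i < p`, permute the other subgroups of order `p` transitively. -/
theorem line_action [Finite G] {p : ℕ} [hp : Fact p.Prime] (A : Subgroup G)
    (hAc : ∀ a ∈ A, ∀ b ∈ A, a * b = b * a) (hAe : ∀ a ∈ A, a ^ p = 1)
    (hAcard : Nat.card A = p ^ 2) (t : G) (htp : ∃ k : ℕ, t ^ p ^ k = 1)
    (htN : t ∈ Subgroup.normalizer (A : Set G)) (htC : ∃ a ∈ A, t * a ≠ a * t) :
    ∃ Z₀ : Subgroup G, Z₀ ≤ A ∧ Nat.card Z₀ = p ∧ (∀ z ∈ Z₀, t * z = z * t) ∧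
      (∀ a ∈ A, t * a = a * t → a ∈ Z₀) ∧
      ∀ X X' : Subgroup G, X ≤ A → X' ≤ A → Nat.card X = p → Nat.card X' = p → X ≠ Z₀ →
        X' ≠ Z₀ → X' ≠ X →
        ∃ i : ℕ, 0 < i ∧ i < p ∧ X' = X.map (MulAut.conj (t ^ i)).toMonoidHom := by
  classical
  have hpp : p.Prime := hp.out
  have hΓ : IsPGroup p (Subgroup.zpowers t) := isPGroup_zpowers htp
  have hconjA : ∀ g : Subgroup.zpowers t, ∀ s ∈ A,
      (Subgroup.zpowers t).subtype g * s * ((Subgroup.zpowers t).subtype g)⁻¹ ∈ A := by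
    rintro ⟨g, hg⟩ s hs
    have hgN : g ∈ Subgroup.normalizer (A : Set G) := (Subgroup.zpowers_le.mpr htN) hg
    exact (Subgroup.mem_normalizer_iff.mp hgN s).mp hs
  have htA : ∀ a ∈ A, t * a * t⁻¹ ∈ A :=
    fun a ha => (Subgroup.mem_normalizer_iff.mp htN a).mp ha
  obtain ⟨Z₀, hZ₀⟩ : ∃ Z₀ : Subgroup G, Z₀ = A ⊓ Subgroup.centralizer ({t} : Set G) := ⟨_, rfl⟩
  have hmemZ : ∀ a, a ∈ Z₀ ↔ a ∈ A ∧ t * a = a * t := by
    intro a
    rw [hZ₀, Subgroup.mem_inf, Subgroup.mem_centralizer_iff]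
    constructor
    · rintro ⟨h1, h2⟩
      exact ⟨h1, h2 t rfl⟩
    · rintro ⟨h1, h2⟩
      refine ⟨h1, ?_⟩
      intro h hh
      rw [Set.mem_singleton_iff] at hh
      subst hh
      exact h2
  have hZA : Z₀ ≤ A := fun a ha => ((hmemZ a).mp ha).1
  have hpA : p ∣ Nat.card A := by
    rw [hAcard]
    exact dvd_pow_self p (by norm_num)
  obtain ⟨z, hzA, hz1, hz⟩ := exists_fixed_ne_one hΓ (Subgroup.zpowers t).subtype A hpA hconjA
  have hfix_comm : ∀ s : G, t * s * t⁻¹ = s → t * s = s * t := by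
    intro s h2
    calc t * s = (t * s * t⁻¹) * t := by group
      _ = s * t := by rw [h2]
  have hzt : t * z = z * t := hfix_comm z (hz ⟨t, Subgroup.mem_zpowers t⟩)
  have hzZ : z ∈ Z₀ := (hmemZ z).mpr ⟨hzA, hzt⟩
  have hZcard : Nat.card Z₀ = p := by
    have hdvd : Nat.card Z₀ ∣ p ^ 2 := by
      rw [← hAcard]
      exact Subgroup.card_dvd_of_le hZA
    obtain ⟨j, hj, hjc⟩ := (Nat.dvd_prime_pow hpp).mp hdvd
    have hj0 : j ≠ 0 := by
      rintro rfl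
      rw [pow_zero] at hjc
      have h1 := Subgroup.card_eq_one.mp hjc
      rw [h1, Subgroup.mem_bot] at hzZ
      exact hz1 hzZ
    have hj2 : j ≠ 2 := by
      rintro rfl
      have hEq : Z₀ = A := Subgroup.eq_of_le_of_card_ge hZA (by rw [hjc, hAcard])
      obtain ⟨a, ha, hne⟩ := htC
      rw [← hEq] at ha
      exact hne ((hmemZ a).mp ha).2
    have hj1 : j = 1 := by omega
    rw [hjc, hj1, pow_one]
  -- the commutator map
  let φ : ↥A →* ↥A :=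
    { toFun := fun a => ⟨t * a * t⁻¹ * (a : G)⁻¹, A.mul_mem (htA a a.2) (A.inv_mem a.2)⟩
      map_one' := by
        apply Subtype.ext
        simp
      map_mul' := by
        rintro ⟨a, ha⟩ ⟨b, hb⟩
        apply Subtype.ext
        show t * (a * b) * t⁻¹ * (a * b)⁻¹ = (t * a * t⁻¹ * a⁻¹) * (t * b * t⁻¹ * b⁻¹)
        have hu : t * b * t⁻¹ * b⁻¹ ∈ A := A.mul_mem (htA b hb) (A.inv_mem hb)
        calc t * (a * b) * t⁻¹ * (a * b)⁻¹
            = (t * a * t⁻¹) * ((t * b * t⁻¹ * b⁻¹) * a⁻¹) := by group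
          _ = (t * a * t⁻¹) * (a⁻¹ * (t * b * t⁻¹ * b⁻¹)) := by
              rw [hAc _ hu _ (A.inv_mem ha)]
          _ = (t * a * t⁻¹ * a⁻¹) * (t * b * t⁻¹ * b⁻¹) := by group }
  have hφ : ∀ (a : G) (ha : a ∈ A), ((φ ⟨a, ha⟩ : ↥A) : G) = t * a * t⁻¹ * a⁻¹ := fun a ha => rfl
  have hker : φ.ker = Z₀.subgroupOf A := by
    ext ⟨a, ha⟩
    rw [MonoidHom.mem_ker, Subgroup.mem_subgroupOf, hmemZ]
    constructor
    · intro h
      have h1 : t * a * t⁻¹ * a⁻¹ = 1 := congrArg Subtype.val h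
      refine ⟨ha, ?_⟩
      calc t * a = (t * a * t⁻¹ * a⁻¹) * (a * t) := by group
        _ = a * t := by rw [h1, one_mul]
    · rintro ⟨-, h⟩
      apply Subtype.ext
      show t * a * t⁻¹ * a⁻¹ = 1
      rw [h]
      group
  have hrange : Nat.card φ.range = p := by
    have h1 := Subgroup.card_mul_index φ.ker
    rw [Subgroup.index_ker, hker, Nat.card_congr (Subgroup.subgroupOfEquivOfLe hZA).toEquiv,
      hZcard, hAcard] at h1
    have h2 : p * Nat.card φ.range = p * p := by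
      rw [h1]
      ring
    exact Nat.eq_of_mul_eq_mul_left hpp.pos h2
  have hIcard : Nat.card (φ.range.map A.subtype) = p := by
    rw [Subgroup.card_map_of_injective A.subtype_injective, hrange]
  have hIinv : ∀ g : Subgroup.zpowers t, ∀ s ∈ φ.range.map A.subtype,
      (Subgroup.zpowers t).subtype g * s * ((Subgroup.zpowers t).subtype g)⁻¹ ∈
        φ.range.map A.subtype := by
    rintro ⟨g, hg⟩ _ ⟨_, ⟨⟨a, ha⟩, rfl⟩, rfl⟩
    have hgt : t * g = g * t := by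
      obtain ⟨n, rfl⟩ := Subgroup.mem_zpowers_iff.mp hg
      exact ((Commute.refl t).zpow_right n).eq
    have hga : g * a * g⁻¹ ∈ A := hconjA ⟨g, hg⟩ a ha
    have h4 : g⁻¹ * t⁻¹ * g = t⁻¹ := by
      have h5 : g⁻¹ * t * g = t := by
        rw [mul_assoc, hgt, ← mul_assoc, inv_mul_cancel, one_mul]
      calc g⁻¹ * t⁻¹ * g = (g⁻¹ * t * g)⁻¹ := by group
        _ = t⁻¹ := by rw [h5]
    have h6 : g * (t * a * t⁻¹ * a⁻¹) * g⁻¹ = t * (g * a * g⁻¹) * t⁻¹ * (g * a * g⁻¹)⁻¹ := by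
      calc g * (t * a * t⁻¹ * a⁻¹) * g⁻¹ = (g * t) * a * t⁻¹ * a⁻¹ * g⁻¹ := by group
        _ = (t * g) * a * (g⁻¹ * t⁻¹ * g) * a⁻¹ * g⁻¹ := by rw [hgt, h4]
        _ = t * (g * a * g⁻¹) * t⁻¹ * (g * a * g⁻¹)⁻¹ := by group
    refine ⟨φ ⟨g * a * g⁻¹, hga⟩, ⟨⟨g * a * g⁻¹, hga⟩, rfl⟩, ?_⟩
    show ((φ ⟨g * a * g⁻¹, hga⟩ : ↥A) : G) = g * ((φ ⟨a, ha⟩ : ↥A) : G) * g⁻¹
    rw [hφ, hφ, h6]
  have hIcent := conj_eq_of_card_prime hΓ (Subgroup.zpowers t).subtype (φ.range.map A.subtype)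
    hIcard hIinv
  have hii : ∀ a ∈ A, t * a * t⁻¹ * a⁻¹ ∈ Z₀ := by
    intro a ha
    have hmem : t * a * t⁻¹ * a⁻¹ ∈ φ.range.map A.subtype :=
      ⟨φ ⟨a, ha⟩, ⟨⟨a, ha⟩, rfl⟩, rfl⟩
    refine (hmemZ _).mpr ⟨A.mul_mem (htA a ha) (A.inv_mem ha), ?_⟩
    exact hfix_comm _ (hIcent ⟨t, Subgroup.mem_zpowers t⟩ _ hmem)
  refine ⟨Z₀, hZA, hZcard, fun z hz => ((hmemZ z).mp hz).2, fun a ha h => (hmemZ a).mpr ⟨ha, h⟩, ?_⟩
  intro X X' hXA hX'A hXc hX'c hXZ hX'Z hne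
  -- generators
  have hXnt : Nontrivial ↥X := Finite.one_lt_card_iff_nontrivial.mp (by rw [hXc]; exact hpp.one_lt)
  have hX'nt : Nontrivial ↥X' :=
    Finite.one_lt_card_iff_nontrivial.mp (by rw [hX'c]; exact hpp.one_lt)
  obtain ⟨⟨x₁, hx₁X⟩, hx₁ne⟩ := exists_ne (1 : ↥X)
  obtain ⟨⟨x₂, hx₂X⟩, hx₂ne⟩ := exists_ne (1 : ↥X')
  have hx₁1 : x₁ ≠ 1 := fun h => hx₁ne (Subtype.ext h)
  have hx₂1 : x₂ ≠ 1 := fun h => hx₂ne (Subtype.ext h)
  have hXz : X = Subgroup.zpowers x₁ :=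
    Cfsg.Agent.Lib.Helper61.eq_zpowers_of_prime_card hpp X hXc hx₁X hx₁1
  have hX'z : X' = Subgroup.zpowers x₂ :=
    Cfsg.Agent.Lib.Helper61.eq_zpowers_of_prime_card hpp X' hX'c hx₂X hx₂1
  have hline : ∀ (Y : Subgroup G) (y : G), Y = Subgroup.zpowers y → Nat.card Y = p → Y ≠ Z₀ →
      y ∉ Z₀ := by
    intro Y y hY hYc hYZ hyZ
    apply hYZ
    have hle : Y ≤ Z₀ := by
      rw [hY]
      exact Subgroup.zpowers_le.mpr hyZ
    exact Subgroup.eq_of_le_of_card_ge hle (by rw [hYc, hZcard])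
  have hx₁Z : x₁ ∉ Z₀ := hline X x₁ hXz hXc hXZ
  have hx₂Z : x₂ ∉ Z₀ := hline X' x₂ hX'z hX'c hX'Z
  have hx₁A : x₁ ∈ A := hXA hx₁X
  have hx₂A : x₂ ∈ A := hX'A hx₂X
  obtain ⟨n, hn⟩ : ∃ n : G, n = t * x₁ * t⁻¹ * x₁⁻¹ := ⟨_, rfl⟩
  have hnZ : n ∈ Z₀ := hn ▸ hii x₁ hx₁A
  have hnA : n ∈ A := hZA hnZ
  have hn1 : n ≠ 1 := by
    intro h
    apply hx₁Z
    refine (hmemZ x₁).mpr ⟨hx₁A, ?_⟩
    rw [hn] at h
    calc t * x₁ = (t * x₁ * t⁻¹ * x₁⁻¹) * (x₁ * t) := by group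
      _ = x₁ * t := by rw [h, one_mul]
  have hnt : t * n = n * t := ((hmemZ n).mp hnZ).2
  have hZz : Z₀ = Subgroup.zpowers n :=
    Cfsg.Agent.Lib.Helper61.eq_zpowers_of_prime_card hpp Z₀ hZcard hnZ hn1
  have hnp : n ^ p = 1 := hAe n hnA
  have hordn : orderOf n = p := orderOf_eq_prime hnp hn1
  have htx : t * x₁ * t⁻¹ = x₁ * n := by
    rw [hAc x₁ hx₁A n hnA, hn]
    group
  have hpow : ∀ i : ℕ, t ^ i * x₁ * (t ^ i)⁻¹ = x₁ * n ^ i := by
    intro i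
    induction i with
    | zero => simp
    | succ i ih =>
      have htn : t * n ^ i * t⁻¹ = n ^ i := by
        have hc : Commute t (n ^ i) := (show Commute t n from hnt).pow_right i
        rw [hc.eq]
        group
      calc t ^ (i + 1) * x₁ * (t ^ (i + 1))⁻¹ = t * (t ^ i * x₁ * (t ^ i)⁻¹) * t⁻¹ := by
            rw [pow_succ']
            group
        _ = t * (x₁ * n ^ i) * t⁻¹ := by rw [ih]
        _ = (t * x₁ * t⁻¹) * (t * n ^ i * t⁻¹) := by group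
        _ = x₁ * n * n ^ i := by rw [htx, htn]
        _ = x₁ * n ^ (i + 1) := by rw [pow_succ', mul_assoc]
  -- decompose x₂
  have hsup : X ⊔ Z₀ = A := by
    have hle : X ⊔ Z₀ ≤ A := sup_le hXA hZA
    apply Subgroup.eq_of_le_of_card_ge hle
    have hdvd : Nat.card ↥(X ⊔ Z₀) ∣ p ^ 2 := by
      rw [← hAcard]
      exact Subgroup.card_dvd_of_le hle
    obtain ⟨j, hj, hjc⟩ := (Nat.dvd_prime_pow hpp).mp hdvd
    have hge : p ≤ Nat.card ↥(X ⊔ Z₀) := by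
      rw [← hXc]
      exact Subgroup.card_le_of_le le_sup_left
    have hne' : Nat.card ↥(X ⊔ Z₀) ≠ p := by
      intro h
      have h1 : X = X ⊔ Z₀ := Subgroup.eq_of_le_of_card_ge le_sup_left (by rw [h, hXc])
      have h2 : Z₀ ≤ X := by
        rw [h1]
        exact le_sup_right
      exact hXZ (Subgroup.eq_of_le_of_card_ge h2 (by rw [hXc, hZcard])).symm
    rw [hAcard]
    interval_cases j
    · rw [pow_zero] at hjc
      have := hpp.one_lt
      omega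
    · rw [pow_one] at hjc
      exact absurd hjc hne'
    · rw [hjc]
  have hZnorm : Z₀ ≤ Subgroup.normalizer (X : Set G) := by
    intro w hw
    rw [Subgroup.mem_normalizer_iff]
    intro x
    have hwA := hZA hw
    constructor
    · intro hx
      have : w * x * w⁻¹ = x := by
        rw [hAc w hwA x (hXA hx)]
        group
      rw [this]
      exact hx
    · intro hx
      have hxA : x ∈ A := by
        have h1 := A.mul_mem (A.mul_mem (A.inv_mem hwA) (hXA hx)) hwA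
        have h2 : w⁻¹ * (w * x * w⁻¹) * w = x := by group
        rwa [h2] at h1
      have : w * x * w⁻¹ = x := by
        rw [hAc w hwA x hxA]
        group
      rwa [this] at hx
  have hx₂sup : x₂ ∈ ((X ⊔ Z₀ : Subgroup G) : Set G) := by
    rw [hsup]
    exact hx₂A
  rw [Subgroup.coe_mul_of_right_le_normalizer_left _ _ hZnorm] at hx₂sup
  obtain ⟨a, ha, b, hb, hab⟩ := hx₂sup
  have hab' : a * b = x₂ := hab
  have ha' : a ∈ Subgroup.zpowers x₁ := hXz ▸ ha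
  have hb' : b ∈ Subgroup.zpowers n := hZz ▸ hb
  rw [← mem_powers_iff_mem_zpowers] at ha' hb'
  obtain ⟨j, hj⟩ := (Submonoid.mem_powers_iff _ _).mp ha'
  obtain ⟨k, hk⟩ := (Submonoid.mem_powers_iff _ _).mp hb'
  have hx₁p : x₁ ^ p = 1 := hAe x₁ hx₁A
  have hordx : orderOf x₁ = p := orderOf_eq_prime hx₁p hx₁1
  have hpj : ¬ p ∣ j := by
    intro hdvd
    apply hx₂Z
    have ha1 : a = 1 := by
      rw [← hj]
      rw [← hordx] at hdvd
      exact orderOf_dvd_iff_pow_eq_one.mp hdvd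
    rw [← hab', ha1, one_mul]
    exact hb
  have hj0 : (j : ZMod p) ≠ 0 := by
    intro h
    exact hpj ((ZMod.natCast_eq_zero_iff j p).mp h)
  obtain ⟨i, hi⟩ : ∃ i : ℕ, i = ((k : ZMod p) * (j : ZMod p)⁻¹).val := ⟨_, rfl⟩
  have hilt : i < p := hi ▸ ZMod.val_lt _
  have hij : i * j ≡ k [MOD p] := by
    rw [← ZMod.natCast_eq_natCast_iff]
    push_cast
    rw [hi, ZMod.natCast_zmod_val, mul_assoc, inv_mul_cancel₀ hj0, mul_one]
  have hnij : n ^ (i * j) = n ^ k := by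
    rw [pow_eq_pow_iff_modEq, hordn]
    exact hij
  have hconj : t ^ i * (x₁ ^ j) * (t ^ i)⁻¹ = x₂ := by
    have h1 : t ^ i * (x₁ ^ j) * (t ^ i)⁻¹ = (t ^ i * x₁ * (t ^ i)⁻¹) ^ j := by
      rw [conj_pow]
    have hc : Commute x₁ (n ^ i) := (show Commute x₁ n from hAc x₁ hx₁A n hnA).pow_right i
    rw [h1, hpow i, hc.mul_pow, ← pow_mul, hnij, hj, hk, hab']
  have hi0 : 0 < i := by
    rcases Nat.eq_zero_or_pos i with h0 | h0
    · exfalso
      rw [h0] at hconj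
      simp only [pow_zero, one_mul, inv_one, mul_one] at hconj
      apply hne
      have hle : X' ≤ X := by
        rw [hX'z, Subgroup.zpowers_le, ← hconj]
        exact X.pow_mem hx₁X j
      exact Subgroup.eq_of_le_of_card_ge hle (by rw [hXc, hX'c])
    · exact h0
  refine ⟨i, hi0, hilt, ?_⟩
  have hmem : x₂ ∈ X.map (MulAut.conj (t ^ i)).toMonoidHom :=
    ⟨x₁ ^ j, X.pow_mem hx₁X j, by
      show (MulAut.conj (t ^ i)) (x₁ ^ j) = x₂
      rw [MulAut.conj_apply]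
      exact hconj⟩
  have hle : X' ≤ X.map (MulAut.conj (t ^ i)).toMonoidHom := by
    rw [hX'z, Subgroup.zpowers_le]
    exact hmem
  apply Subgroup.eq_of_le_of_card_ge hle
  rw [Subgroup.card_map_of_injective (MulAut.conj (t ^ i)).injective, hXc, hX'c]

end Cfsg.Agent.Lib.Helper79.BG
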