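import Mathlib
import Cfsg.Prelude.Def_OddOrderLocal
import Cfsg.Agent.Lib.Helper35.BG.Basic
import Cfsg.Agent.Lib.Helper35.BG.Hall
import Cfsg.Agent.Lib.Helper67.BG.Basics
import Cfsg.Agent.Lib.Helper20.BG.S1408Core
import Cfsg.Agent.Lib.Helper23.Compl
import Cfsg.Agent.Lib.Helper71.Fitting

/-!
General group-theoretic plumbing for Bender–Glauberman Theorem 12.7 (helper79).
-/

set_option autoImplicit false

namespace Cfsg.Agent.Lib.Helper79.BG

open Cfsg.Agent.Lib.Helper46 Cfsg.Agent.Lib.Helper35.BG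

variable {G : Type*} [Group G]

/-- A conjugate of a maximal subgroup is a maximal subgroup. -/
theorem isCoatom_map_conj {M : Subgroup G} (hM : IsCoatom M) (g : G) :
    IsCoatom (M.map (MulAut.conj g).toMonoidHom) :=
  ((MulAut.conj g).mapSubgroup.isCoatom_iff M).mpr hM

/-- An element of `p`-power order lies in every normal subgroup of `q`-power index (`p ≠ q`). -/
theorem mem_of_normal_of_index_pow {J : Type*} [Group J] [Finite J] (N : Subgroup J) [N.Normal]
    {p q : ℕ} (hpq : p.Coprime q) {n : ℕ} (hidx : N.index = q ^ n) {x : J} {k : ℕ}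
    (hx : x ^ p ^ k = 1) : x ∈ N := by
  rw [← QuotientGroup.eq_one_iff]
  have h1 : ((x : J ⧸ N)) ^ p ^ k = 1 := by
    rw [← QuotientGroup.mk_pow, hx]
    rfl
  have h2 : ((x : J ⧸ N)) ^ q ^ n = 1 := by
    rw [← hidx, Subgroup.index_eq_card]
    exact pow_card_eq_one'
  have h3 := pow_gcd_eq_one.mpr ⟨h1, h2⟩
  have h4 : (p ^ k).gcd (q ^ n) = 1 := Nat.Coprime.pow k n hpq
  rwa [h4, pow_one] at h3

/-- An element of a finite subgroup whose order is coprime to the order of the subgroup is trivial. -/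
theorem eq_one_of_pow_of_card [Finite G] (N : Subgroup G) {x : G} (hx : x ∈ N) {m : ℕ}
    (hm : x ^ m = 1) (hcop : m.Coprime (Nat.card N)) : x = 1 := by
  have h1 : x ^ Nat.card N = 1 := by
    have h2 : (⟨x, hx⟩ : N) ^ Nat.card N = 1 := pow_card_eq_one'
    exact congrArg Subtype.val h2
  have h3 := pow_gcd_eq_one.mpr ⟨hm, h1⟩
  have h4 : m.gcd (Nat.card N) = 1 := hcop
  rwa [h4, pow_one] at h3

/-- Conjugating an element of the centralizer of `X` gives an element of the centralizer of the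
conjugate of `X`. -/
theorem conj_mem_centralizer_map_conj {X : Subgroup G} {c : G}
    (hc : c ∈ Subgroup.centralizer (X : Set G)) (g : G) :
    g * c * g⁻¹ ∈ Subgroup.centralizer ((X.map (MulAut.conj g).toMonoidHom : Subgroup G) : Set G) := by
  rw [Subgroup.mem_centralizer_iff] at hc ⊢
  rintro _ ⟨x, hx, rfl⟩
  have h1 := hc x hx
  show g * x * g⁻¹ * (g * c * g⁻¹) = g * c * g⁻¹ * (g * x * g⁻¹)
  calc g * x * g⁻¹ * (g * c * g⁻¹) = g * (x * c) * g⁻¹ := by group
    _ = g * (c * x) * g⁻¹ := by rw [h1]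
    _ = g * c * g⁻¹ * (g * x * g⁻¹) := by group

/-- The conjugate of an elementary abelian subgroup is elementary abelian. -/
theorem isEA_map_conj {p : ℕ} {B : Subgroup G} (hB : Cfsg.IsElementaryAbelian p B) (g : G) :
    Cfsg.IsElementaryAbelian p (B.map (MulAut.conj g).toMonoidHom) := by
  refine ⟨isMulCommutative_map_conj hB.1 g, ?_⟩
  rintro _ ⟨b, hb, rfl⟩
  rw [← map_pow, hB.2 b hb, map_one]

/-- A complement `E` of `M_σ` in `M` contains a Sylow `q`-subgroup of `M` for `q ∉ σ(M)`. -/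
theorem sylow_compl [Finite G] (M E : Subgroup G)
    (hE : Cfsg.IsComplIn E (Cfsg.sigmaCore M) M) (q : ℕ) [hq : Fact q.Prime]
    (hqσ : q ∉ Cfsg.sigma M) :
    ∃ R : Subgroup G, IsSylowIn q R E ∧ IsSylowIn q R M := by
  obtain ⟨R, hR, -⟩ := exists_isSylowIn_ge (p := q) (Q := ⊥) (H := E) IsPGroup.of_bot bot_le
  refine ⟨R, hR, hR.1.trans hE.1, ?_⟩
  have h0 : (Nat.card (Cfsg.sigmaCore M)).factorization q = 0 := by
    apply Nat.factorization_eq_zero_of_not_dvd
    intro h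
    exact hqσ (Cfsg.Agent.Lib.Helper67.BG.sigmaCore_isPi M q hq.out h)
  rw [hR.2, Cfsg.Agent.Lib.Helper23.card_of_isComplIn hE,
    Nat.factorization_mul Nat.card_pos.ne' Nat.card_pos.ne']
  simp [h0]

/-- For `q ∈ τ₂(M)`, a complement `E` of `M_σ` in `M` contains an elementary abelian subgroup of
order `q ^ 2`. -/
theorem exists_ea_sq_compl [Finite G] (M E : Subgroup G)
    (hE : Cfsg.IsComplIn E (Cfsg.sigmaCore M) M) (q : ℕ) [hq : Fact q.Prime]
    (hqσ : q ∉ Cfsg.sigma M) (hr2 : Cfsg.PRankLE q 2 M) (hr1 : ¬ Cfsg.PRankLE q 1 M) :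
    ∃ B : Subgroup G, B ≤ E ∧ Cfsg.IsElementaryAbelian q B ∧ Nat.card B = q ^ 2 := by
  obtain ⟨B₀, hB₀M, hB₀ea, hB₀card⟩ := Cfsg.Agent.Lib.Helper20.BG.exists_ea_sq M q hr2 hr1
  obtain ⟨R, hR, hRM⟩ := sylow_compl M E hE q hqσ
  obtain ⟨R', hR', hB₀R'⟩ :=
    exists_isSylowIn_ge (Cfsg.Agent.Lib.Helper20.BG.isPGroup_of_ea hB₀ea) hB₀M
  obtain ⟨g, -, rfl⟩ := hR'.exists_conj hRM
  refine ⟨B₀.map (MulAut.conj g).toMonoidHom, ?_, isEA_map_conj hB₀ea g, ?_⟩
  · exact (Subgroup.map_mono hB₀R').trans hR.1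
  · rw [card_map_conj, hB₀card]

/-- `M` normalizes `F(M)`. -/
theorem fittingOf_normalizer (M : Subgroup G) :
    M ≤ Subgroup.normalizer (Cfsg.fittingOf M : Set G) := by
  rw [Subgroup.le_normalizer_iff]
  rintro m hm _ ⟨f, hf, rfl⟩
  exact ⟨⟨m, hm⟩ * f * ⟨m, hm⟩⁻¹,
    (Cfsg.Agent.Lib.Helper71.fittingSubgroup_normal (G := M)).conj_mem f hf ⟨m, hm⟩, rfl⟩

/-- `F(M)` is nilpotent. -/
theorem fittingOf_nilpotent [Finite G] (M : Subgroup G) :
    Group.IsNilpotent (Cfsg.fittingOf M) := by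
  have hnil : Group.IsNilpotent (Cfsg.fittingSubgroup M) :=
    Cfsg.Agent.Lib.Helper71.fittingSubgroup_isNilpotent
  exact Group.nilpotent_of_mulEquiv
    ((Cfsg.fittingSubgroup M).equivMapOfInjective M.subtype M.subtype_injective)

/-- A Sylow subgroup of a nilpotent subgroup `F` is normalized by everything normalizing `F`. -/
theorem le_normalizer_sylow_of_nilpotent [Finite G] {F M : Subgroup G}
    (hFnil : Group.IsNilpotent F) (hFN : M ≤ Subgroup.normalizer (F : Set G)) {q : ℕ}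
    [Fact q.Prime] (Q' : Sylow q F) :
    M ≤ Subgroup.normalizer ((((Q' : Subgroup F).map F.subtype : Subgroup G)) : Set G) := by
  have hnc : NormalizerCondition F := Group.normalizerCondition_of_isNilpotent
  have hQn : (Q' : Subgroup F).Normal := Sylow.normal_of_normalizerCondition hnc Q'
  have hYsyl : IsSylowIn q ((Q' : Subgroup F).map F.subtype) F := isSylowIn_of_sylow Q'
  have hFY : F ≤ Subgroup.normalizer ((((Q' : Subgroup F).map F.subtype : Subgroup G)) : Set G) := by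
    rw [Subgroup.le_normalizer_iff]
    rintro f hf _ ⟨y, hy, rfl⟩
    exact ⟨⟨f, hf⟩ * y * ⟨f, hf⟩⁻¹, hQn.conj_mem y hy ⟨f, hf⟩, rfl⟩
  intro m hm
  apply mem_normalizer_of_map_conj_eq
  have h1 : IsSylowIn q (((Q' : Subgroup F).map F.subtype).map (MulAut.conj m).toMonoidHom) F := by
    have h := sylIn_map_conj hYsyl m
    rwa [map_conj_eq_of_mem_normalizer (hFN hm)] at h
  have h2 : (Q' : Subgroup F).map F.subtype ≤
      ((Q' : Subgroup F).map F.subtype).map (MulAut.conj m).toMonoidHom :=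
    sylIn_normal_le h1 (Q'.isPGroup'.map _) hYsyl.1 hFY
  exact (Subgroup.eq_of_le_of_card_ge h2 (by rw [card_map_conj])).symm

end Cfsg.Agent.Lib.Helper79.BG
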