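import Mathlib
import Cfsg.Prelude.Def_OddOrderLocal
import Cfsg.Statements.S1403
import Cfsg.Statements.S1412
import Cfsg.Agent.S1453
import Cfsg.Agent.Lib.Helper79.BG.Util
import Cfsg.Agent.Lib.Helper79.BG.Util2

/-!
Bender–Glauberman Theorem 12.7 (helper79): in a non-abelian Sylow `p`-subgroup `S` of `G`
containing the elementary abelian subgroup `A` of order `p ^ 2` of `M` (`p ∈ τ₂(M)`), the `p`-th
power of an element `x` of an abelian subgroup containing `A` is central in `S` as soon as it lies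
in `A`.  Conditional on the statements of rows 1403 and 1412; row 1453 is used as proved.
-/

set_option autoImplicit false

namespace Cfsg.Agent.Lib.Helper79.BG

open Cfsg.Agent.Lib.Helper46 Cfsg.Agent.Lib.Helper35.BG Cfsg.Agent.Lib.Helper20.BG

/-- Rank at most two: the central product structure. -/
theorem pow_central_rank_two {G : Type*} [Group G] {p : ℕ} (S P₁ P₂ : Subgroup G)
    (hsup : P₁ ⊔ P₂ = S) (hcomm : ∀ a ∈ P₁, ∀ b ∈ P₂, a * b = b * a)
    (hexp : Monoid.exponent P₁ = p) (hcyc : IsCyclic P₂)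
    (x : G) (hx : x ∈ S) (s : G) (hs : s ∈ S) : x ^ p * s = s * x ^ p := by
  rw [← hsup] at hx hs
  obtain ⟨a, ha, b, hb, rfl⟩ := Cfsg.Agent.Lib.Helper23.mem_sup_of_commute P₁ P₂ hcomm hx
  obtain ⟨a', ha', b', hb', rfl⟩ := Cfsg.Agent.Lib.Helper23.mem_sup_of_commute P₁ P₂ hcomm hs
  have hap : a ^ p = 1 := by
    have h1 : (⟨a, ha⟩ : P₁) ^ Monoid.exponent P₁ = 1 := Monoid.pow_exponent_eq_one _
    rw [hexp] at h1
    exact congrArg Subtype.val h1
  have h2 : (a * b) ^ p = b ^ p := by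
    rw [(show Commute a b from hcomm a ha b hb).mul_pow, hap, one_mul]
  rw [h2]
  have hbp : b ^ p ∈ P₂ := P₂.pow_mem hb p
  have h3 : b ^ p * b' = b' * b ^ p := by
    obtain ⟨g, hg⟩ := hcyc.exists_generator
    obtain ⟨m, hm⟩ := Subgroup.mem_zpowers_iff.mp (hg ⟨b ^ p, hbp⟩)
    obtain ⟨n, hn⟩ := Subgroup.mem_zpowers_iff.mp (hg ⟨b', hb'⟩)
    have h4 : (⟨b ^ p, hbp⟩ : P₂) * ⟨b', hb'⟩ = ⟨b', hb'⟩ * ⟨b ^ p, hbp⟩ := by
      rw [← hm, ← hn, ← zpow_add, ← zpow_add, add_comm]
    exact congrArg Subtype.val h4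
  have h5 : a' * b ^ p = b ^ p * a' := hcomm a' ha' _ hbp
  calc b ^ p * (a' * b') = (b ^ p * a') * b' := by group
    _ = (a' * b ^ p) * b' := by rw [h5]
    _ = a' * (b ^ p * b') := by group
    _ = a' * (b' * b ^ p) := by rw [h3]
    _ = a' * b' * b ^ p := by group

/-- Rank at least three: a finite `p`-group `R` with a maximal elementary abelian subgroup `E`
of order `p ^ 2`. -/
theorem pow_central_rank_three {R : Type*} [Group R] [Finite R] (p : ℕ) [hp : Fact p.Prime]
    (hp2 : p ≠ 2) (hR : IsPGroup p R) (hr : ¬ Cfsg.PRankLE p 2 R)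
    (E : Subgroup R) (hE : Cfsg.IsElementaryAbelian p E) (hE2 : Nat.card E = p ^ 2)
    (hEmax : ∀ B : Subgroup R, Cfsg.IsElementaryAbelian p B → E ≤ B → B = E)
    (x : R) (hxc : ∀ a ∈ E, x * a = a * x) (hxE : x ^ p ∈ E) (s : R) :
    x ^ p * s = s * x ^ p := by
  classical
  have hpp : p.Prime := hp.out
  obtain ⟨hnotle, hΩcard, -, hchar, hidx⟩ :=
    Cfsg.Agent.S1453.result p hp2 hR hr E hE hE2 hEmax
  obtain ⟨W, hW⟩ : ∃ W : Subgroup R, W =
      Subgroup.closure {x : R | x ∈ Subgroup.upperCentralSeries R 2 ∧ x ^ p = 1} := ⟨_, rfl⟩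
  obtain ⟨Z, hZ⟩ : ∃ Z : Subgroup R, Z =
      Subgroup.closure {x : R | x ∈ Subgroup.center R ∧ x ^ p = 1} := ⟨_, rfl⟩
  rw [← hW] at hnotle hchar hidx
  rw [← hZ] at hΩcard
  have hTn : (Subgroup.centralizer (W : Set R)).Normal := Subgroup.normal_of_characteristic _
  -- elements of `Z` are central of order dividing `p`
  have hZmem : ∀ z ∈ Z, z ∈ Subgroup.center R ∧ z ^ p = 1 := by
    intro z hz
    rw [hZ] at hz
    induction hz using Subgroup.closure_induction with
    | mem y hy => exact hy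
    | one => exact ⟨Subgroup.one_mem _, one_pow p⟩
    | mul y z _ _ hy hz =>
      refine ⟨Subgroup.mul_mem _ hy.1 hz.1, ?_⟩
      have hc : Commute y z := Subgroup.mem_center_iff.mp hz.1 y
      rw [hc.mul_pow, hy.2, hz.2, one_mul]
    | inv y _ hy => exact ⟨Subgroup.inv_mem _ hy.1, by rw [inv_pow, hy.2, inv_one]⟩
  have hZT : Z ≤ Subgroup.centralizer (W : Set R) := by
    intro z hz
    rw [Subgroup.mem_centralizer_iff]
    intro w _
    exact Subgroup.mem_center_iff.mp (hZmem z hz).1 w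
  have hZea : Cfsg.IsElementaryAbelian p Z := by
    refine ⟨?_, fun z hz => (hZmem z hz).2⟩
    rw [isMulCommutative_iff]
    rintro ⟨a, ha⟩ ⟨b, hb⟩
    apply Subtype.ext
    exact (Subgroup.mem_center_iff.mp (hZmem a ha).1 b).symm
  have hZE : Z ≤ E := by
    have h1 : Cfsg.IsElementaryAbelian p (E ⊔ Z) :=
      Cfsg.Agent.Lib.Helper23.isEA_sup hE hZea
        (fun a _ b hb => Subgroup.mem_center_iff.mp (hZmem b hb).1 a)
    have h2 := hEmax (E ⊔ Z) h1 le_sup_left
    rw [← h2]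
    exact le_sup_right
  have hcardET : Nat.card ↥(E ⊓ Subgroup.centralizer (W : Set R)) = p := by
    have hdvd : Nat.card ↥(E ⊓ Subgroup.centralizer (W : Set R)) ∣ p ^ 2 :=
      hE2 ▸ Subgroup.card_dvd_of_le inf_le_left
    obtain ⟨j, hj, hjc⟩ := (Nat.dvd_prime_pow hpp).mp hdvd
    have hge : p ≤ Nat.card ↥(E ⊓ Subgroup.centralizer (W : Set R)) :=
      hΩcard ▸ Subgroup.card_le_of_le (le_inf hZE hZT)
    have hne : Nat.card ↥(E ⊓ Subgroup.centralizer (W : Set R)) ≠ p ^ 2 := by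
      intro h
      apply hnotle
      have h1 : E ⊓ Subgroup.centralizer (W : Set R) = E :=
        Subgroup.eq_of_le_of_card_ge inf_le_left (by rw [h, hE2])
      rw [← h1]
      exact inf_le_right
    interval_cases j
    · rw [pow_zero] at hjc
      have := hpp.one_lt
      omega
    · rw [hjc, pow_one]
    · exact absurd hjc hne
  have hZeq : Z = E ⊓ Subgroup.centralizer (W : Set R) :=
    Subgroup.eq_of_le_of_card_ge (le_inf hZE hZT) (by rw [hcardET, hΩcard])
  -- an element of `E` outside `T`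
  obtain ⟨a, haE, haT⟩ : ∃ a ∈ E, a ∉ Subgroup.centralizer (W : Set R) := by
    by_contra hcon
    push Not at hcon
    exact hnotle hcon
  -- `x ^ p ∈ T`
  have hxT : x ^ p ∈ Subgroup.centralizer (W : Set R) := by
    have hcardQ : Nat.card (R ⧸ Subgroup.centralizer (W : Set R)) = p := by
      rw [← Subgroup.index_eq_card, hidx]
    have ha1 : ((a : R) : R ⧸ Subgroup.centralizer (W : Set R)) ≠ 1 := by
      intro h
      exact haT ((QuotientGroup.eq_one_iff a).mp h)
    have hmem := mem_zpowers_of_prime_card hcardQ ha1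
      (g' := ((x : R) : R ⧸ Subgroup.centralizer (W : Set R)))
    obtain ⟨n, hn⟩ := Subgroup.mem_zpowers_iff.mp hmem
    have hx₀ : a ^ (-n) * x ∈ Subgroup.centralizer (W : Set R) := by
      rw [← QuotientGroup.eq_one_iff, QuotientGroup.mk_mul, QuotientGroup.mk_zpow, ← hn,
        ← zpow_add, neg_add_cancel, zpow_zero]
    have hax : Commute a x := (hxc a haE).symm
    have hap : a ^ p = 1 := hE.2 a haE
    have hpow : (a ^ (-n) * x) ^ p = x ^ p := by
      rw [(hax.zpow_left (-n)).mul_pow, ← zpow_natCast, ← zpow_mul, mul_comm, zpow_mul,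
        zpow_natCast, hap, one_zpow, one_mul]
    rw [← hpow]
    exact Subgroup.pow_mem _ hx₀ p
  have hxZ : x ^ p ∈ Z := by
    rw [hZeq]
    exact ⟨hxE, hxT⟩
  exact (Subgroup.mem_center_iff.mp (hZmem _ hxZ).1 s).symm

theorem pow_central {G : Type*} [Group G] [Finite G] (hG : Cfsg.IsMinSimpleOddOrder G)
    (h1403 : type_of% (@Cfsg.CfsgFrozen.S1403 G _ _ hG))
    (h1412 : type_of% (@Cfsg.CfsgFrozen.S1412 G _ _ hG))
    (M : Subgroup G) (hM : IsCoatom M) (p : ℕ) [hp : Fact p.Prime] (hpσ : p ∉ Cfsg.sigma M)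
    (A : Subgroup G) (hAM : A ≤ M) (hAea : Cfsg.IsElementaryAbelian p A)
    (hAcard : Nat.card A = p ^ 2)
    (S : Sylow p G) (hS : ¬ IsMulCommutative (S : Subgroup G))
    (P' : Subgroup G) (hP'S : P' ≤ S) (hP'c : ∀ x ∈ P', ∀ y ∈ P', x * y = y * x) (hAP' : A ≤ P')
    (x : G) (hx : x ∈ P') (hxA : x ^ p ∈ A) (s : G) (hs : s ∈ (S : Subgroup G)) :
    x ^ p * s = s * x ^ p := by
  classical
  have hpp : p.Prime := hp.out
  have hAS : A ≤ (S : Subgroup G) := hAP'.trans hP'S
  by_cases hr : Cfsg.PRankLE p 2 ↥(S : Subgroup G)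
  · rcases h1412 p S hr with hc | ⟨P₁, P₂, hsup, hcomm, -, -, hexp, hcyc, -⟩
    · exact absurd hc hS
    · exact pow_central_rank_two (S : Subgroup G) P₁ P₂ hsup hcomm hexp hcyc x (hP'S hx) s hs
  · have hp2 : p ≠ 2 := by
      rintro rfl
      have h1 : Odd (Nat.card A) := odd_card_subgroup hG A
      rw [hAcard] at h1
      revert h1
      decide
    have hE' : Cfsg.IsElementaryAbelian p (A.subgroupOf (S : Subgroup G)) := by
      refine ⟨?_, ?_⟩
      · rw [isMulCommutative_iff]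
        rintro ⟨⟨a, haS⟩, ha⟩ ⟨⟨b, hbS⟩, hb⟩
        apply Subtype.ext
        apply Subtype.ext
        exact ea_comm hAea a (Subgroup.mem_subgroupOf.mp ha) b (Subgroup.mem_subgroupOf.mp hb)
      · rintro ⟨a, haS⟩ ha
        apply Subtype.ext
        exact hAea.2 a (Subgroup.mem_subgroupOf.mp ha)
    have hE2 : Nat.card (A.subgroupOf (S : Subgroup G)) = p ^ 2 := by
      rw [Nat.card_congr (Subgroup.subgroupOfEquivOfLe hAS).toEquiv, hAcard]
    have hEmax : ∀ B : Subgroup ↥(S : Subgroup G), Cfsg.IsElementaryAbelian p B →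
        A.subgroupOf (S : Subgroup G) ≤ B → B = A.subgroupOf (S : Subgroup G) := by
      intro B hB hAB
      have hBea : Cfsg.IsElementaryAbelian p (B.map (S : Subgroup G).subtype) := by
        refine ⟨?_, ?_⟩
        · rw [isMulCommutative_iff]
          rintro ⟨_, ⟨a, ha, rfl⟩⟩ ⟨_, ⟨b, hb, rfl⟩⟩
          apply Subtype.ext
          have h1 := (isMulCommutative_iff.mp hB.1) ⟨a, ha⟩ ⟨b, hb⟩
          exact congrArg (fun z : ↥B => ((z : ↥(S : Subgroup G)) : G)) h1
        · rintro _ ⟨b, hb, rfl⟩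
          rw [← map_pow, hB.2 b hb, map_one]
      have hAB' : A ≤ B.map (S : Subgroup G).subtype := by
        intro a ha
        exact ⟨⟨a, hAS ha⟩, hAB (Subgroup.mem_subgroupOf.mpr ha), rfl⟩
      have h1 := s1408_max hG h1403 M hM p hpσ A hAM hAea hAcard _ hBea hAB'
      ext y
      rw [Subgroup.mem_subgroupOf, ← h1]
      constructor
      · intro hy
        exact ⟨y, hy, rfl⟩
      · rintro ⟨y', hy', hyy⟩
        have h2 : y' = y := Subtype.ext hyy
        rw [← h2]
        exact hy'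
    have h1 := pow_central_rank_three p hp2 S.isPGroup' hr (A.subgroupOf (S : Subgroup G)) hE' hE2
      hEmax ⟨x, hP'S hx⟩ ?_ ?_ ⟨s, hs⟩
    · exact congrArg Subtype.val h1
    · rintro ⟨a, haS⟩ ha
      apply Subtype.ext
      exact hP'c x hx a (hAP' (Subgroup.mem_subgroupOf.mp ha))
    · rw [Subgroup.mem_subgroupOf]
      exact hxA

end Cfsg.Agent.Lib.Helper79.BG
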